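import Mathlib.GroupTheory.PGroup
import Mathlib.GroupTheory.Nilpotent
import Mathlib.GroupTheory.Subgroup.Centralizer
import Mathlib.Algebra.BigOperators.Finprod
import Mathlib.Algebra.BigOperators.Group.Finset.Basic

/-!
# Pairing off normal chains of `p`-subgroups at a fixed `p`-element

For a non-trivial `p`-element `u`, the normal chains of non-trivial `p`-subgroups fixed by `u`,
other than the chain `⟨u⟩`, are paired off by adding or removing one member, in a way that respects
the stabilisers inside the centralizer of `u`.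
-/

set_option autoImplicit false

set_option linter.style.haveILetI false

namespace CfsgLib.BlockSections

open Subgroup

variable {G : Type*} [Group G] {p : ℕ}

/-- A normal chain of non-trivial `p`-subgroups. -/
def IsNormalChain (p : ℕ) (s : Finset (Subgroup G)) : Prop :=
  s.Nonempty ∧ (∀ Q ∈ s, ∀ R ∈ s, Q ≤ R ∨ R ≤ Q) ∧ (∀ Q ∈ s, Q ≠ ⊥ ∧ IsPGroup p Q) ∧
    ∃ T ∈ s, ∀ Q ∈ s, Q ≤ T ∧ T ≤ Subgroup.normalizer ((Q : Subgroup G) : Set G)

/-- The stabiliser of a chain. -/
def chainNorm (s : Finset (Subgroup G)) : Subgroup G :=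
  ⨅ Q ∈ s, Subgroup.normalizer ((Q : Subgroup G) : Set G)

theorem mem_chainNorm {s : Finset (Subgroup G)} {g : G} :
    g ∈ chainNorm s ↔ ∀ Q ∈ s, g ∈ Subgroup.normalizer ((Q : Subgroup G) : Set G) := by
  simp [chainNorm, Subgroup.mem_iInf]

/-- The largest member of the chain, joined with `u`. -/
def topJoin (u : G) (s : Finset (Subgroup G)) : Subgroup G :=
  sSup {Q | Q ∈ s} ⊔ zpowers u

/-- The members avoiding `u`, joined with `u`. -/
def lowJoin (u : G) (s : Finset (Subgroup G)) : Subgroup G :=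
  sSup {Q | Q ∈ s ∧ u ∉ Q} ⊔ zpowers u

/-- The member to be added or removed. -/
def pivot (u : G) (s : Finset (Subgroup G)) : Subgroup G :=
  sInf {Y : Subgroup G | lowJoin u s ≤ Y ∧ topJoin u s ≤ Subgroup.normalizer (Y : Set G)}

variable {u : G} {s : Finset (Subgroup G)}

theorem lowJoin_le_pivot : lowJoin u s ≤ pivot u s := le_sInf fun _ hY => hY.1

theorem mem_pivot : u ∈ pivot u s := lowJoin_le_pivot (mem_sup_right (mem_zpowers u))

theorem mem_normalizer_sInf {S : Set (Subgroup G)} {g : G}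
    (h : ∀ Y ∈ S, g ∈ Subgroup.normalizer (Y : Set G)) :
    g ∈ Subgroup.normalizer (sInf S : Subgroup G) := by
  rw [Subgroup.mem_normalizer_iff]
  intro x
  simp only [Subgroup.mem_sInf]
  exact forall₂_congr fun Y hY => (Subgroup.mem_normalizer_iff.1 (h Y hY) x)

theorem topJoin_le_normalizer_pivot :
    topJoin u s ≤ Subgroup.normalizer (pivot u s : Set G) :=
  fun _ hg => mem_normalizer_sInf fun _ hY => hY.2 hg

theorem lowJoin_le_topJoin : lowJoin u s ≤ topJoin u s :=
  sup_le_sup_right (sSup_le_sSup fun _ hQ => hQ.1) _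

theorem pivot_le_topJoin : pivot u s ≤ topJoin u s :=
  sInf_le ⟨lowJoin_le_topJoin, Subgroup.le_normalizer⟩

theorem topJoin_eq (T : Subgroup G) (hT : T ∈ s) (hle : ∀ Q ∈ s, Q ≤ T) :
    topJoin u s = T ⊔ zpowers u := by
  rw [topJoin]
  congr 1
  exact le_antisymm (sSup_le hle) (le_sSup hT)

variable [DecidableEq (Subgroup G)]

/-- Add or remove the pivot. -/
def toggle (u : G) (s : Finset (Subgroup G)) : Finset (Subgroup G) :=
  if pivot u s ∈ s then s.erase (pivot u s) else insert (pivot u s) s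

theorem topJoin_insert_pivot : topJoin u (insert (pivot u s) s) = topJoin u s := by
  refine le_antisymm (sup_le (sSup_le fun Q hQ => ?_) le_sup_right)
    (sup_le_sup_right (sSup_le_sSup fun _ hQ => Finset.mem_insert_of_mem hQ) _)
  rcases Finset.mem_insert.1 hQ with rfl | hQ
  · exact pivot_le_topJoin
  · exact (le_sSup (show Q ∈ {Q | Q ∈ s} from hQ)).trans le_sup_left

theorem lowJoin_insert_pivot : lowJoin u (insert (pivot u s) s) = lowJoin u s := by
  refine le_antisymm (sup_le_sup_right (sSup_le (s := {Q | Q ∈ insert (pivot u s) s ∧ u ∉ Q}) fun Q ⟨hQ, hu⟩ => ?_) _)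
    (sup_le_sup_right (sSup_le_sSup (s := {Q | Q ∈ s ∧ u ∉ Q})
      (t := {Q | Q ∈ insert (pivot u s) s ∧ u ∉ Q})
      fun _ hQ => ⟨Finset.mem_insert_of_mem hQ.1, hQ.2⟩) _)
  rcases Finset.mem_insert.1 hQ with rfl | hQ
  · exact absurd mem_pivot hu
  · exact le_sSup ⟨hQ, hu⟩

theorem pivot_insert_pivot : pivot u (insert (pivot u s) s) = pivot u s := by
  show sInf _ = sInf _
  rw [topJoin_insert_pivot, lowJoin_insert_pivot]

omit [DecidableEq (Subgroup G)] in
theorem zpowers_le_normalizer_of_mem {H : Subgroup G} (h : u ∈ Subgroup.normalizer (H : Set G)) :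
    zpowers u ≤ Subgroup.normalizer (H : Set G) := zpowers_le.2 h

omit [DecidableEq (Subgroup G)] in
theorem topJoin_le_normalizer (hs : IsNormalChain p s) (hu : u ∈ chainNorm s) {Q : Subgroup G}
    (hQ : Q ∈ s) : topJoin u s ≤ Subgroup.normalizer (Q : Set G) := by
  obtain ⟨T, hT, hTop⟩ := hs.2.2.2
  rw [topJoin_eq T hT fun R hR => (hTop R hR).1]
  exact sup_le (hTop Q hQ).2 (zpowers_le_normalizer_of_mem (mem_chainNorm.1 hu Q hQ))

omit [DecidableEq (Subgroup G)] in
theorem isPGroup_topJoin [Finite G] [Fact p.Prime] (hs : IsNormalChain p s)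
    (hu : u ∈ chainNorm s) {k : ℕ} (hk : orderOf u = p ^ k) : IsPGroup p (topJoin u s) := by
  obtain ⟨T, hT, hTop⟩ := hs.2.2.2
  rw [topJoin_eq T hT fun R hR => (hTop R hR).1]
  exact IsPGroup.to_sup_of_normal_left' (hs.2.2.1 T hT).2
    (IsPGroup.of_card (n := k) (by rw [Nat.card_zpowers, hk]))
    (zpowers_le_normalizer_of_mem (mem_chainNorm.1 hu T hT))

omit [DecidableEq (Subgroup G)] in
theorem pivot_le_of_mem (hs : IsNormalChain p s) (hu : u ∈ chainNorm s) {Q : Subgroup G}
    (hQ : Q ∈ s) (huQ : u ∈ Q) : pivot u s ≤ Q := by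
  refine sInf_le ⟨sup_le (sSup_le fun R ⟨hR, huR⟩ => ?_) (zpowers_le.2 huQ),
    topJoin_le_normalizer hs hu hQ⟩
  rcases hs.2.1 R hR Q hQ with h | h
  · exact h
  · exact absurd (h huQ) huR

omit [DecidableEq (Subgroup G)] in
theorem le_pivot_of_not_mem {Q : Subgroup G} (hQ : Q ∈ s) (huQ : u ∉ Q) : Q ≤ pivot u s :=
  (le_sSup (show Q ∈ {Q | Q ∈ s ∧ u ∉ Q} from ⟨hQ, huQ⟩)).trans (le_sup_left.trans lowJoin_le_pivot)

theorem isNormalChain_insert [Finite G] [Fact p.Prime] (hs : IsNormalChain p s)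
    (hu : u ∈ chainNorm s) {k : ℕ} (hk : orderOf u = p ^ k) (hu1 : u ≠ 1) :
    IsNormalChain p (insert (pivot u s) s) := by
  have hcomp : ∀ Q ∈ s, Q ≤ pivot u s ∨ pivot u s ≤ Q := fun Q hQ => by
    by_cases huQ : u ∈ Q
    · exact Or.inr (pivot_le_of_mem hs hu hQ huQ)
    · exact Or.inl (le_pivot_of_not_mem hQ huQ)
  refine ⟨Finset.insert_nonempty _ _, fun Q hQ R hR => ?_, fun Q hQ => ?_, ?_⟩
  · rcases Finset.mem_insert.1 hQ with rfl | hQ <;> rcases Finset.mem_insert.1 hR with rfl | hR
    · exact Or.inl le_rfl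
    · exact (hcomp R hR).symm
    · exact hcomp Q hQ
    · exact hs.2.1 Q hQ R hR
  · rcases Finset.mem_insert.1 hQ with rfl | hQ
    · refine ⟨fun h => hu1 ?_, (isPGroup_topJoin hs hu hk).to_le pivot_le_topJoin⟩
      simpa [h] using (mem_pivot : u ∈ pivot u s)
    · exact hs.2.2.1 Q hQ
  · obtain ⟨T, hT, hTop⟩ := hs.2.2.2
    by_cases huT : u ∈ T
    · refine ⟨T, Finset.mem_insert_of_mem hT, fun Q hQ => ?_⟩
      rcases Finset.mem_insert.1 hQ with rfl | hQ
      · refine ⟨pivot_le_of_mem hs hu hT huT, ?_⟩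
        refine le_trans ?_ topJoin_le_normalizer_pivot
        rw [topJoin_eq T hT fun R hR => (hTop R hR).1]
        exact le_sup_left
      · exact hTop Q hQ
    · have htop : pivot u s = topJoin u s := by
        refine le_antisymm pivot_le_topJoin (le_trans ?_ lowJoin_le_pivot)
        rw [topJoin_eq T hT fun R hR => (hTop R hR).1]
        exact sup_le_sup_right (le_sSup (show T ∈ {Q | Q ∈ s ∧ u ∉ Q} from ⟨hT, huT⟩)) _
      refine ⟨pivot u s, Finset.mem_insert_self _ _, fun Q hQ => ?_⟩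
      rcases Finset.mem_insert.1 hQ with rfl | hQ
      · exact ⟨le_rfl, Subgroup.le_normalizer⟩
      · refine ⟨(hTop Q hQ).1.trans (le_pivot_of_not_mem hT huT), ?_⟩
        rw [htop]
        exact topJoin_le_normalizer hs hu hQ

theorem isNormalChain_erase [Finite G] (hs : IsNormalChain p s) {X : Subgroup G}
    (hne : (s.erase X).Nonempty) : IsNormalChain p (s.erase X) := by
  refine ⟨hne, fun Q hQ R hR => hs.2.1 Q (Finset.mem_of_mem_erase hQ) R (Finset.mem_of_mem_erase hR),
    fun Q hQ => hs.2.2.1 Q (Finset.mem_of_mem_erase hQ), ?_⟩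
  obtain ⟨T, hT, hTop⟩ := hs.2.2.2
  obtain ⟨R, hR⟩ := (s.erase X).exists_maximal hne
  refine ⟨R, hR.1, fun Q hQ => ⟨?_, (hTop R (Finset.mem_of_mem_erase hR.1)).1.trans
    (hTop Q (Finset.mem_of_mem_erase hQ)).2⟩⟩
  rcases hs.2.1 Q (Finset.mem_of_mem_erase hQ) R (Finset.mem_of_mem_erase hR.1) with h | h
  · exact h
  · exact hR.2 hQ h

omit [DecidableEq (Subgroup G)] in
theorem lowJoin_eq_topJoin [Finite G] [Fact p.Prime] (hp' : IsPGroup p (topJoin u s))
    (heq : pivot u s = topJoin u s) : lowJoin u s = topJoin u s := by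
  set W := topJoin u s with hW
  by_contra hne
  have hlt : lowJoin u s < W := lt_of_le_of_ne lowJoin_le_topJoin hne
  haveI : Group.IsNilpotent W := hp'.isNilpotent
  haveI : Finite (Subgroup W) :=
    Finite.of_injective (fun H : Subgroup W => (H : Set W)) SetLike.coe_injective
  obtain ⟨Y, hY⟩ := Set.Finite.exists_maximal
    (Set.toFinite {Y : Subgroup W | (lowJoin u s).subgroupOf W ≤ Y ∧ Y ≠ ⊤})
    ⟨_, le_rfl, fun h => hlt.not_ge (Subgroup.subgroupOf_eq_top.1 h)⟩
  have hcoatom : IsCoatom Y := ⟨hY.1.2, fun Y' hY' => by_contra fun h =>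
    hY'.not_ge (hY.2 ⟨hY.1.1.trans hY'.le, h⟩ hY'.le)⟩
  have hnorm : Y.Normal := Subgroup.NormalizerCondition.normal_of_coatom Y
    (Group.normalizerCondition_of_isNilpotent (G := W)) hcoatom
  have hWY : W ≤ Y.map W.subtype := by
    refine heq.ge.trans (sInf_le ⟨?_, ?_⟩ : pivot u s ≤ _)
    · intro x hx
      exact ⟨⟨x, lowJoin_le_topJoin hx⟩, hY.1.1 (Subgroup.mem_subgroupOf.2 hx), rfl⟩
    · intro x hx
      rw [Subgroup.mem_normalizer_iff]
      intro y
      constructor
      · rintro ⟨w, hw, rfl⟩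
        exact ⟨_, hnorm.conj_mem w hw ⟨x, hx⟩, rfl⟩
      · rintro ⟨w, hw, he⟩
        refine ⟨_, hnorm.conj_mem w hw ⟨x⁻¹, W.inv_mem hx⟩, ?_⟩
        simp [show (w : G) = x * y * x⁻¹ from he, mul_assoc]
  apply hY.1.2
  rw [eq_top_iff]
  rintro ⟨x, hx⟩ -
  obtain ⟨w, hw, he⟩ := hWY hx
  exact (Subtype.ext he : w = ⟨x, hx⟩) ▸ hw

/-- The pairing. -/
theorem toggle_spec [Finite G] [Fact p.Prime] {k : ℕ} (hk : orderOf u = p ^ k) (hu1 : u ≠ 1)
    (hs : IsNormalChain p s) (hu : u ∈ chainNorm s) (hne : s ≠ {zpowers u}) :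
    IsNormalChain p (toggle u s) ∧ u ∈ chainNorm (toggle u s) ∧ toggle u s ≠ {zpowers u} ∧
      toggle u s ≠ s ∧ toggle u (toggle u s) = s ∧
      chainNorm (toggle u s) ⊓ centralizer ({u} : Set G) =
        chainNorm s ⊓ centralizer ({u} : Set G) ∧
      ((-1 : ℤ) ^ ((toggle u s).card - 1) = -(-1 : ℤ) ^ (s.card - 1)) := by
  have hstab : ∀ t : Finset (Subgroup G), ∀ g ∈ chainNorm t ⊓ centralizer ({u} : Set G),
      g ∈ Subgroup.normalizer (pivot u t : Set G) := by
    intro t g hg
    obtain ⟨hgn, hgc⟩ := Subgroup.mem_inf.1 hg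
    set c : G →* G := (MulAut.conj g).toMonoidHom with hc
    have hZ : (zpowers u).map c = zpowers u := by
      rw [MonoidHom.map_zpowers, hc]
      congr 1
      simp [Subgroup.mem_centralizer_singleton_iff.1 hgc]
    have hQ : ∀ Q ∈ t, Q.map c = Q := fun Q hQ =>
      Subgroup.mem_normalizer_iff_map_conj_eq.1 (mem_chainNorm.1 hgn Q hQ)
    have htop : (topJoin u t).map c = topJoin u t := by
      simp only [topJoin, sSup_eq_iSup, Subgroup.map_sup, Subgroup.map_iSup, hZ]
      congr 1
      exact iSup_congr fun Q => iSup_congr fun h => hQ Q h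
    have hlow : (lowJoin u t).map c = lowJoin u t := by
      simp only [lowJoin, sSup_eq_iSup, Subgroup.map_sup, Subgroup.map_iSup, hZ]
      congr 1
      exact iSup_congr fun Q => iSup_congr fun h => hQ Q h.1
    rw [Subgroup.mem_normalizer_iff_map_conj_eq]
    show (pivot u t).map c = pivot u t
    have hbij : Function.Bijective c := (MulAut.conj g).bijective
    have hcomap : ∀ A : Subgroup G, A.map c = A → A.comap c = A := fun A h => by
      conv_lhs => rw [← h]
      exact Subgroup.comap_map_eq_self_of_injective hbij.1 A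
    have h1 : (pivot u t).map c ≤ pivot u t := by
      refine le_sInf fun Y hY => ?_
      rw [Subgroup.map_le_iff_le_comap]
      refine sInf_le ⟨?_, ?_⟩
      · rw [← hcomap _ hlow]
        exact Subgroup.comap_mono hY.1
      · intro x hx
        have hx' : c x ∈ topJoin u t := htop ▸ Subgroup.mem_map_of_mem _ hx
        rw [Subgroup.mem_normalizer_iff]
        intro y
        rw [Subgroup.mem_comap, Subgroup.mem_comap, map_mul, map_mul, map_inv]
        exact Subgroup.mem_normalizer_iff.1 (hY.2 hx') (c y)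
    exact Subgroup.eq_of_le_of_card_ge h1 (Subgroup.card_map_of_injective hbij.1).ge
  by_cases hX : pivot u s ∈ s
  · set s' := s.erase (pivot u s) with hs'
    have htog : toggle u s = s' := by rw [toggle, if_pos hX]
    have hins : insert (pivot u s) s' = s := Finset.insert_erase hX
    have hnon : s'.Nonempty := by
      rw [Finset.nonempty_iff_ne_empty]
      intro h
      have hsing : s = {pivot u s} := by
        conv_lhs => rw [← hins, h]
        rfl
      apply hne
      have hlow : lowJoin u s = zpowers u := by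
        refine le_antisymm (sup_le (sSup_le fun Q ⟨hQ, huQ⟩ => ?_) le_rfl) le_sup_right
        rw [hsing, Finset.mem_singleton] at hQ
        exact absurd (hQ ▸ mem_pivot) huQ
      have htop : topJoin u s = pivot u s := by
        rw [topJoin_eq _ hX fun Q hQ => by rw [hsing, Finset.mem_singleton] at hQ; rw [hQ]]
        exact sup_eq_left.2 (zpowers_le.2 mem_pivot)
      rw [hsing]
      congr 1
      rw [← htop, ← hlow, lowJoin_eq_topJoin (isPGroup_topJoin hs hu hk) htop.symm]
    have hsub : ∀ Q ∈ s', Q ∈ s := fun Q hQ => Finset.mem_of_mem_erase hQ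
    have hpiv : pivot u s' = pivot u s := by
      -- removing the pivot changes neither join
      have h2 : lowJoin u s' = lowJoin u s := by
        refine le_antisymm
          (sup_le_sup_right (sSup_le_sSup (s := {Q | Q ∈ s' ∧ u ∉ Q}) (t := {Q | Q ∈ s ∧ u ∉ Q})
            fun Q hQ => ⟨hsub Q hQ.1, hQ.2⟩) _)
          (sup_le_sup_right (sSup_le_sSup (s := {Q | Q ∈ s ∧ u ∉ Q}) (t := {Q | Q ∈ s' ∧ u ∉ Q})
            fun Q ⟨hQ, huQ⟩ => ?_) _)
        exact ⟨Finset.mem_erase.2 ⟨fun h => huQ (h ▸ mem_pivot), hQ⟩, huQ⟩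
      have h1 : topJoin u s' = topJoin u s := by
        refine le_antisymm
          (sup_le_sup_right (sSup_le_sSup hsub) _) ?_
        obtain ⟨T, hT, hTop⟩ := hs.2.2.2
        have htopT := topJoin_eq (u := u) T hT fun Q hQ => (hTop Q hQ).1
        by_cases hTX : T = pivot u s
        · have hX' : pivot u s = topJoin u s := by
            rw [htopT, ← hTX]
            exact (sup_eq_left.2 (zpowers_le.2 (hTX ▸ mem_pivot))).symm
          rw [← lowJoin_eq_topJoin (isPGroup_topJoin hs hu hk) hX', ← h2]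
          exact lowJoin_le_topJoin
        · rw [htopT]
          exact sup_le_sup_right (le_sSup (show T ∈ {Q | Q ∈ s'} from Finset.mem_erase.2 ⟨hTX, hT⟩)) _
      simp only [pivot, h1, h2]
    rw [htog]
    refine ⟨isNormalChain_erase hs hnon, mem_chainNorm.2 fun Q hQ =>
      mem_chainNorm.1 hu Q (hsub Q hQ), fun h => ?_, fun h => ?_, ?_, ?_, ?_⟩
    · have hmem : zpowers u ∈ s := hsub _ (h ▸ Finset.mem_singleton_self _)
      have hle := pivot_le_of_mem hs hu hmem (mem_zpowers u)
      have heq : pivot u s = zpowers u := le_antisymm hle (zpowers_le.2 mem_pivot)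
      have := Finset.notMem_erase (pivot u s) s
      rw [← hs', h, heq] at this
      exact this (Finset.mem_singleton_self _)
    · exact (Finset.erase_ssubset hX).ne h
    · rw [toggle, hpiv, if_neg (Finset.notMem_erase _ _), hins]
    · refine le_antisymm (fun g hg => ?_) (inf_le_inf_right _ fun g hg => mem_chainNorm.2 fun Q hQ =>
        mem_chainNorm.1 hg Q (hsub Q hQ))
      obtain ⟨hgn, hgc⟩ := Subgroup.mem_inf.1 hg
      refine Subgroup.mem_inf.2 ⟨mem_chainNorm.2 fun Q hQ => ?_, hgc⟩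
      by_cases hQX : Q = pivot u s
      · rw [hQX, ← hpiv]
        exact hstab s' g hg
      · exact mem_chainNorm.1 hgn Q (Finset.mem_erase.2 ⟨hQX, hQ⟩)
    · have hc := Finset.card_erase_of_mem hX
      have hpos := hnon.card_pos
      rw [← hs'] at hc
      rw [hc] at hpos ⊢
      rw [show s.card - 1 = s.card - 1 - 1 + 1 by omega, pow_succ]
      simp
  · have htog : toggle u s = insert (pivot u s) s := by rw [toggle, if_neg hX]
    rw [htog]
    refine ⟨isNormalChain_insert hs hu hk hu1, mem_chainNorm.2 fun Q hQ => ?_,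
      fun h => ?_, fun h => hX (Finset.insert_eq_self.1 h), ?_, ?_, ?_⟩
    · rcases Finset.mem_insert.1 hQ with rfl | hQ
      · exact Subgroup.le_normalizer mem_pivot
      · exact mem_chainNorm.1 hu Q hQ
    · obtain ⟨T, hT⟩ := hs.1
      have h1 : T ∈ ({zpowers u} : Finset (Subgroup G)) := h ▸ Finset.mem_insert_of_mem hT
      have h2 : pivot u s ∈ ({zpowers u} : Finset (Subgroup G)) := h ▸ Finset.mem_insert_self _ _
      rw [Finset.mem_singleton] at h1 h2
      exact hX (h2.trans h1.symm ▸ hT)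
    · rw [toggle, pivot_insert_pivot, if_pos (Finset.mem_insert_self _ _), Finset.erase_insert hX]
    · refine le_antisymm (inf_le_inf_right _ fun g hg => mem_chainNorm.2 fun Q hQ =>
        mem_chainNorm.1 hg Q (Finset.mem_insert_of_mem hQ)) fun g hg => ?_
      obtain ⟨hgn, hgc⟩ := Subgroup.mem_inf.1 hg
      refine Subgroup.mem_inf.2 ⟨mem_chainNorm.2 fun Q hQ => ?_, hgc⟩
      rcases Finset.mem_insert.1 hQ with rfl | hQ
      · exact hstab s g hg
      · exact mem_chainNorm.1 hgn Q hQ
    · rw [Finset.card_insert_of_notMem hX]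
      have := hs.1.card_pos
      rw [show s.card + 1 - 1 = s.card - 1 + 1 by omega, pow_succ, mul_neg_one]

end CfsgLib.BlockSections
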