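import Cfsg.Agent.Lib.BlockSections.Count
import Cfsg.Agent.Lib.BlockLocal.ClassFunctional
import Cfsg.Agent.Lib.BrauerPairs.BridgeConj
import Cfsg.Agent.Lib.BrauerCharacters.Consequences
import Cfsg.Agent.Lib.BrauerCharacters.Rank

/-!
# Sums of squared values over the sections of the characters lying over a block

For a homomorphism `φ : A →* G` and a block `b` of `G`, `indSet φ b` is the union of the blocks of
`A` that induce `b`; the excess of its size over its rank, times `|A|`, is a sum over the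
non-trivial `p`-elements `u` of `G` of quantities that only depend on the centralizer of `u`.
-/

set_option autoImplicit false
set_option linter.style.haveILetI false
set_option linter.unusedSectionVars false

namespace CfsgLib.BlockSections

open Cfsg CfsgLib.CharTheory CfsgLib.Blocks CfsgLib.BrauerCharacters Finset
open scoped ComplexConjugate

variable {G : Type*} [Group G] {A : Type*} [Group A]

/-- The induced central character along a homomorphism. -/
noncomputable def indVal (φ : A →* G) (ψ : A → ℂ) (g : G) : ℂ :=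
  ∑ᶠ a ∈ {a : A | IsConj g (φ a)}, ψ a / ψ 1

/-- The characters of `A` in blocks inducing `b` along `φ`. -/
def indSet (M : Ideal AlgInt) (φ : A →* G) (b : Set (IrrCharacter G)) : Set (IrrCharacter A) :=
  {ψ | ∀ χ ∈ b, ∀ g : G, MemLocalIdeal M (indVal φ (ψ : A → ℂ) g - centralChar (χ : G → ℂ) g)}

open scoped Classical in
/-- The squared values of `indSet` over the section of `u`. -/
noncomputable def sectionSum [Fintype A] (M : Ideal AlgInt) (p : ℕ) (φ : A →* G)
    (b : Set (IrrCharacter G)) (u : G) : ℂ :=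
  ∑ a : A, if IsPPart p (φ a) u then
    ∑ ψ ∈ blockFinset (indSet M φ b), (ψ : A → ℂ) a * conj ((ψ : A → ℂ) a) else 0

section Classes

variable [Fintype A]

open scoped Classical in
theorem finsum_mem_eq_sum_filter (φ : A →* G) (f : A → ℂ) (g : G) :
    ∑ᶠ a ∈ {a : A | IsConj g (φ a)}, f a = ∑ a ∈ univ.filter (fun a => IsConj g (φ a)), f a := by
  rw [finsum_mem_eq_finite_toFinset_sum _ (Set.toFinite _)]
  exact sum_congr (by ext; simp) fun _ _ => rfl

theorem isConj_map_iff_of_isConj (φ : A →* G) {g : G} {a a' : A} (h : IsConj a a') :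
    IsConj g (φ a) ↔ IsConj g (φ a') :=
  ⟨fun h' => h'.trans (φ.map_isConj h), fun h' => h'.trans (φ.map_isConj h).symm⟩

open scoped Classical in
/-- The induced value through the classes of `A`. -/
theorem indVal_eq_sum_classes [Fintype (ConjClasses A)] (φ : A →* G) {ψ : A → ℂ}
    (hψ : IsClassFunction A ψ) (g : G) :
    indVal φ ψ g =
      ∑ c ∈ univ.filter (fun c : ConjClasses A => IsConj g (φ c.out)), centralChar ψ c.out := by
  rw [indVal, finsum_mem_eq_sum_filter, ← sum_fiberwise_of_maps_to (g := ConjClasses.mk)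
    (t := univ.filter (fun c : ConjClasses A => IsConj g (φ c.out)))]
  · refine sum_congr rfl fun c hc => ?_
    rw [← BlockLocal.sum_conj_eq_centralChar hψ c.out]
    refine sum_congr ?_ fun _ _ => rfl
    ext a
    simp only [mem_filter, mem_univ, true_and]
    constructor
    · rintro ⟨-, rfl⟩
      exact ConjClasses.mk_eq_mk_iff_isConj.1 (Quotient.out_eq _)
    · intro h
      have h' : ConjClasses.mk a = c := by
        rw [← ConjClasses.mk_eq_mk_iff_isConj.2 h]
        exact Quotient.out_eq c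
      exact ⟨(isConj_map_iff_of_isConj φ h).1 (mem_filter.1 hc).2, h'⟩
  · intro a ha
    refine mem_filter.2 ⟨mem_univ _, ?_⟩
    exact (isConj_map_iff_of_isConj φ
      (ConjClasses.mk_eq_mk_iff_isConj.1 (Quotient.out_eq (ConjClasses.mk a)))).2 (mem_filter.1 ha).2

open scoped Classical in
/-- The induced value from a subgroup through the classes of `A`. -/
theorem indVal_comp_eq_sum_classes [Fintype (ConjClasses A)] (φ : A →* G) (C : Subgroup A)
    [Fintype C] (ξ : C → ℂ) (g : G) :
    indVal (φ.comp C.subtype) ξ g =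
      ∑ c ∈ univ.filter (fun c : ConjClasses A => IsConj g (φ c.out)),
        inducedCentralChar C ξ c.out := by
  rw [indVal, finsum_mem_eq_sum_filter, ← sum_fiberwise_of_maps_to
    (g := fun x : C => ConjClasses.mk (x : A))
    (t := univ.filter (fun c : ConjClasses A => IsConj g (φ c.out)))]
  · refine sum_congr rfl fun c hc => ?_
    rw [show inducedCentralChar C ξ c.out =
      ∑ᶠ x ∈ {x : C | IsConj c.out (C.subtype x)}, ξ x / ξ 1 from rfl, finsum_mem_eq_sum_filter]
    refine sum_congr ?_ fun _ _ => rfl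
    ext x
    simp only [mem_filter, mem_univ, true_and]
    constructor
    · rintro ⟨-, rfl⟩
      exact ConjClasses.mk_eq_mk_iff_isConj.1 (Quotient.out_eq _)
    · intro h
      have h' : ConjClasses.mk ((x : A)) = c := by
        rw [← ConjClasses.mk_eq_mk_iff_isConj.2 (show IsConj c.out (x : A) from h)]
        exact Quotient.out_eq c
      exact ⟨(isConj_map_iff_of_isConj φ h).1 (mem_filter.1 hc).2, h'⟩
  · intro x hx
    refine mem_filter.2 ⟨mem_univ _, ?_⟩
    exact (isConj_map_iff_of_isConj φ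
      (ConjClasses.mk_eq_mk_iff_isConj.1 (Quotient.out_eq (ConjClasses.mk (x : A))))).2
      (mem_filter.1 hx).2

variable {M : Ideal AlgInt} [M.IsPrime]

theorem memLocalIdeal_indVal_sub (φ : A →* G) {ψ ψ' : IrrCharacter A}
    (h : SameBlock M (ψ : A → ℂ) (ψ' : A → ℂ)) (g : G) :
    MemLocalIdeal M (indVal φ (ψ : A → ℂ) g - indVal φ (ψ' : A → ℂ) g) := by
  classical
  haveI := Fintype.ofFinite (ConjClasses A)
  rw [indVal_eq_sum_classes φ (IsIrrCharacter.isClassFunction ψ.2),
    indVal_eq_sum_classes φ (IsIrrCharacter.isClassFunction ψ'.2), ← sum_sub_distrib]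
  exact memLocalIdeal_sum fun c _ => h c.out

theorem memLocalIdeal_indVal_comp_sub (φ : A →* G) {C : Subgroup A} [Fintype C]
    {ξ : IrrCharacter C} {ψ : IrrCharacter A}
    (h : ∀ a : A, MemLocalIdeal M (inducedCentralChar C (ξ : C → ℂ) a -
      centralChar (ψ : A → ℂ) a)) (g : G) :
    MemLocalIdeal M (indVal (φ.comp C.subtype) (ξ : C → ℂ) g - indVal φ (ψ : A → ℂ) g) := by
  classical
  haveI := Fintype.ofFinite (ConjClasses A)
  rw [indVal_eq_sum_classes φ (IsIrrCharacter.isClassFunction ψ.2),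
    indVal_comp_eq_sum_classes φ C, ← sum_sub_distrib]
  exact memLocalIdeal_sum fun c _ => h c.out

variable {b : Set (IrrCharacter G)}

/-- `indSet` is a union of blocks. -/
theorem mem_indSet_of_sameBlock (φ : A →* G) {ψ ψ' : IrrCharacter A}
    (h : SameBlock M (ψ : A → ℂ) (ψ' : A → ℂ)) (hψ : ψ ∈ indSet M φ b) :
    ψ' ∈ indSet M φ b := by
  intro χ hχ g
  have h1 := memLocalIdeal_sub (hψ χ hχ g) (memLocalIdeal_indVal_sub φ h g)
  rwa [sub_sub_sub_cancel_left] at h1

theorem mem_indSet_of_mem {φ : A →* G} {β : Set (IrrCharacter A)} (hβ : IsPBlock M β)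
    {ψ ψ' : IrrCharacter A} (hψ : ψ ∈ β) (hψ' : ψ' ∈ β) (h : ψ ∈ indSet M φ b) :
    ψ' ∈ indSet M φ b :=
  mem_indSet_of_sameBlock φ (sameBlock_of_mem hβ hψ hψ') h

/-- Transitivity of induction. -/
theorem mem_indSet_comp_iff (φ : A →* G) {C : Subgroup A} [Fintype C] {β : Set (IrrCharacter C)}
    {B : Set (IrrCharacter A)} (h : IsInducedBlock M C β B) {ξ : IrrCharacter C} (hξ : ξ ∈ β)
    {ψ : IrrCharacter A} (hψ : ψ ∈ B) :
    ξ ∈ indSet M (φ.comp C.subtype) b ↔ ψ ∈ indSet M φ b := by
  have key := memLocalIdeal_indVal_comp_sub (M := M) φ (h.2.2 ξ hξ ψ hψ)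
  constructor
  · intro h' χ hχ g
    have h1 := memLocalIdeal_sub (h' χ hχ g) (key g)
    rwa [sub_sub_sub_cancel_left] at h1
  · intro h' χ hχ g
    have h1 := memLocalIdeal_add (key g) (h' χ hχ g)
    rwa [sub_add_sub_cancel] at h1

end Classes

section Id

variable [Fintype G] {M : Ideal AlgInt} [M.IsPrime] {b : Set (IrrCharacter G)}

theorem indVal_id {ψ : G → ℂ} (hψ : IsClassFunction G ψ) (g : G) :
    indVal (MonoidHom.id G) ψ g = centralChar ψ g := by
  classical
  rw [indVal, finsum_mem_eq_sum_filter]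
  refine Eq.trans (sum_congr ?_ fun _ _ => rfl) (BlockLocal.sum_conj_eq_centralChar hψ g)
  ext a
  simp

theorem indSet_id (hb : IsPBlock M b) : indSet M (MonoidHom.id G) b = b := by
  ext ψ
  constructor
  · intro h
    obtain ⟨χ, hχ⟩ := isPBlock_nonempty hb
    refine mem_of_sameBlock hb hχ fun g => ?_
    have := h χ hχ g
    rw [indVal_id (IsIrrCharacter.isClassFunction ψ.2)] at this
    rw [← neg_sub]
    exact memLocalIdeal_neg this
  · intro hψ χ hχ g
    rw [indVal_id (IsIrrCharacter.isClassFunction ψ.2)]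
    exact sameBlock_of_mem hb hψ hχ g

/-- The induced set of a subgroup as in the definition of induced blocks. -/
theorem indSet_subtype (hb : IsPBlock M b) (H : Subgroup G) :
    indSet M H.subtype b =
      {ψ : IrrCharacter H | ∃ β : Set (IrrCharacter H), ψ ∈ β ∧ IsInducedBlock M H β b} := by
  haveI := Fintype.ofFinite H
  ext ψ
  constructor
  · intro h
    refine ⟨blockOf M (ψ : H → ℂ), mem_blockOf_self ψ, isPBlock_blockOf ψ, hb, fun ξ hξ χ hχ g => ?_⟩
    exact mem_indSet_of_mem (isPBlock_blockOf ψ) (mem_blockOf_self ψ) hξ h χ hχ g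
  · rintro ⟨β, hψ, hβ⟩ χ hχ g
    exact hβ.2.2 ψ hψ χ hχ g

end Id

variable [Fintype A] [Finite G] {M : Ideal AlgInt} [M.IsPrime] {p : ℕ} [hp : Fact p.Prime]
  {b : Set (IrrCharacter G)}

theorem weakOrth_indSet (hM : IsPModular p M) (φ : A →* G) : WeakOrth p (indSet M φ b) := by
  classical
  intro x y hx hy
  rw [finsum_mem_eq_sum_blockFinset, ← sum_fiberwise_of_maps_to
    (g := fun χ : IrrCharacter A => blockOf M (χ : A → ℂ))
    (t := (blockFinset (indSet M φ b)).image fun χ : IrrCharacter A => blockOf M (χ : A → ℂ))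
    (fun χ h => mem_image_of_mem _ h)]
  refine sum_eq_zero fun β hβ => ?_
  obtain ⟨ψ, hψ, rfl⟩ := mem_image.1 hβ
  have h := finsum_mul_conj_eq_zero_of_isPBlock hM (isPBlock_blockOf (M := M) ψ) hx hy
  rw [finsum_mem_eq_sum_blockFinset] at h
  refine Eq.trans (sum_congr ?_ fun _ _ => rfl) h
  ext χ
  simp only [mem_filter, mem_blockFinset]
  constructor
  · rintro ⟨-, h'⟩
    exact h' ▸ mem_blockOf_self χ
  · intro h'
    exact ⟨mem_indSet_of_mem (isPBlock_blockOf ψ) (mem_blockOf_self ψ) h' (mem_blockFinset.1 hψ),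
      (eq_blockOf_of_mem (isPBlock_blockOf ψ) h').symm⟩

/-- The excess of the number of characters over the rank. -/
theorem card_mul_sub_rank (hM : IsPModular p M) [Fintype G] [DecidableEq G] {φ : A →* G}
    (hφ : Function.Injective φ) :
    (Nat.card A : ℂ) * ((Nat.card (indSet M φ b) : ℂ) - (blockRank p (indSet M φ b) : ℂ)) =
      ∑ u ∈ (univ : Finset G).erase 1, sectionSum M p φ b u := by
  classical
  set T := indSet M φ b
  have hA : (Nat.card A : ℂ) ≠ 0 := Nat.cast_ne_zero.2 Nat.card_pos.ne'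
  rw [← sum_regInner_self_eq_blockRank (weakOrth_indSet (b := b) hM φ), ← card_blockFinset,
    card_eq_sum_ones, Nat.cast_sum, ← sum_sub_distrib, mul_sum]
  simp only [sectionSum]
  rw [sum_comm (s := (univ : Finset G).erase 1)]
  have hterm : ∀ ψ ∈ blockFinset T, (Nat.card A : ℂ) *
      (((1 : ℕ) : ℂ) - regInner p (ψ : A → ℂ) (ψ : A → ℂ)) =
      ∑ a : A, if p ∣ orderOf a then (ψ : A → ℂ) a * conj ((ψ : A → ℂ) a) else 0 := by
    intro ψ _
    rw [Nat.cast_one, ← classInner_self_of_isIrr ψ.2, regInner, classInner, classInner, ← mul_sub,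
      ← sum_sub_distrib, ← mul_assoc, mul_inv_cancel₀ hA, one_mul]
    refine sum_congr rfl fun a _ => ?_
    rw [pRegularPart_apply]
    split_ifs <;> simp
  rw [sum_congr rfl hterm, sum_comm]
  refine sum_congr rfl fun a _ => ?_
  obtain ⟨z, hz⟩ := exists_isPPart p (φ a)
  have hord : p ∣ orderOf a ↔ z ≠ 1 := by
    rw [Ne, isPPart_eq_one_iff hz, not_not, orderOf_injective φ hφ]
  by_cases hd : p ∣ orderOf a
  · rw [sum_eq_single_of_mem z (mem_erase.2 ⟨hord.1 hd, mem_univ _⟩)
      fun u _ hu => if_neg fun h => hu (IsPPart.unique h hz), if_pos hz]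
    exact sum_congr rfl fun _ _ => if_pos hd
  · rw [sum_eq_zero fun _ _ => if_neg hd]
    refine (sum_eq_zero fun u hu => if_neg fun h => ?_).symm
    exact hd (hord.2 (IsPPart.unique hz h ▸ (mem_erase.1 hu).1))

open scoped Classical in
theorem sum_isPPart_eq {φ : A →* G} (hφ : Function.Injective φ) {y : A}
    (hy : ∃ k : ℕ, orderOf y = p ^ k) [Fintype (Subgroup.centralizer ({y} : Set A))] (F : A → ℂ) :
    ∑ a : A, (if IsPPart p (φ a) (φ y) then F a else 0) =
      ∑ s : Subgroup.centralizer ({y} : Set A), (if p ∣ orderOf s then 0 else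
        F ((cenElem y * s : Subgroup.centralizer ({y} : Set A)) : A)) := by
  have hy' : ∃ k : ℕ, orderOf (φ y) = p ^ k := by
    obtain ⟨k, hk⟩ := hy; exact ⟨k, by rw [orderOf_injective φ hφ, hk]⟩
  refine sum_bij_ne_zero (fun a _ h => (⟨y⁻¹ * a, ?_⟩ : Subgroup.centralizer ({y} : Set A)))
    (fun _ _ _ => mem_univ _)
    (fun a _ _ b _ _ e => mul_left_cancel (congrArg Subtype.val e)) (fun s _ hs => ?_)
    (fun a _ h => ?_)
  · have ha : IsPPart p (φ a) (φ y) := by by_contra hne; exact h (if_neg hne)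
    refine Subgroup.mem_centralizer_singleton_iff.2 ?_
    have hc : Commute y a := hφ (by rw [map_mul, map_mul]; exact (commute_of_isPPart ha).eq)
    exact ((Commute.refl y).inv_right.mul_right hc).symm.eq
  · have hs' : ¬ p ∣ orderOf s := fun h => hs (if_pos h)
    have hpp : IsPPart p (φ ((cenElem y * s : Subgroup.centralizer ({y} : Set A)) : A)) (φ y) := by
      refine ⟨φ (s : A), ?_, ?_, hy', ?_⟩
      · rw [← map_mul]; rfl
      · exact Commute.map (congrArg Subtype.val (commute_cenElem y s).eq : Commute y (s : A)) φ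
      · rwa [orderOf_injective φ hφ, Subgroup.orderOf_coe]
    refine ⟨((cenElem y * s : Subgroup.centralizer ({y} : Set A)) : A), mem_univ _, ?_,
      Subtype.ext (inv_mul_cancel_left y (s : A))⟩
    rw [if_pos hpp]
    rwa [if_neg hs'] at hs
  · have ha : IsPPart p (φ a) (φ y) := by by_contra hne; exact h (if_neg hne)
    obtain ⟨w, hw, -, -, hw'⟩ := id ha
    have he : φ (y⁻¹ * a) = w := by rw [map_mul, map_inv, ← hw, inv_mul_cancel_left]
    rw [if_pos ha, if_neg]
    · exact congrArg F (mul_inv_cancel_left y a).symm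
    · rw [← Subgroup.orderOf_coe, ← orderOf_injective φ hφ, he]
      exact hw'

/-- The sum over the section of `φ y` only depends on the centralizer of `y`. -/
theorem sectionSum_centralizer (hM : IsPModular p M) {φ : A →* G} (hφ : Function.Injective φ)
    {y : A} (hy : ∃ k : ℕ, orderOf y = p ^ k)
    [Fintype (Subgroup.centralizer ({y} : Set A))] :
    sectionSum M p φ b (φ y) =
      sectionSum M p (φ.comp (Subgroup.centralizer ({y} : Set A)).subtype) b (φ y) := by
  classical
  haveI := Fintype.ofFinite (IrrCharacter A)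
  set T := indSet M φ b
  set TC := indSet M (φ.comp (Subgroup.centralizer ({y} : Set A)).subtype) b
  -- both sides as sums over the regular elements
  have hR : sectionSum M p (φ.comp (Subgroup.centralizer ({y} : Set A)).subtype) b (φ y) =
      ∑ s : (Subgroup.centralizer ({y} : Set A)), if p ∣ orderOf s then 0 else ∑ ξ ∈ blockFinset TC,
        (ξ : (Subgroup.centralizer ({y} : Set A)) → ℂ) (cenElem y * s) * conj ((ξ : (Subgroup.centralizer ({y} : Set A)) → ℂ) (cenElem y * s)) := by
    have hyC : ∃ k : ℕ, orderOf (cenElem y) = p ^ k := by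
      obtain ⟨k, hk⟩ := hy
      exact ⟨k, by rw [← hk, ← Subgroup.orderOf_coe]; rfl⟩
    rw [sectionSum, ← Equiv.sum_comp (Equiv.mulLeft (cenElem y))]
    refine sum_congr rfl fun s _ => ?_
    simp only [Equiv.coe_mulLeft]
    have hiff : IsPPart p ((φ.comp (Subgroup.centralizer ({y} : Set A)).subtype) (cenElem y * s)) (φ y) ↔ ¬ p ∣ orderOf s := by
      constructor
      · rintro ⟨w, hw, -, -, hw'⟩
        have he : φ (s : A) = w := by
          simp only [MonoidHom.comp_apply, Subgroup.coe_subtype, map_mul] at hw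
          exact (mul_left_cancel (a := φ y) hw.symm)
        rwa [← Subgroup.orderOf_coe, ← orderOf_injective φ hφ, he]
      · intro hs
        refine ⟨φ (s : A), ?_, ?_, ?_, ?_⟩
        · rw [← map_mul]; rfl
        · exact Commute.map (congrArg Subtype.val (commute_cenElem y s).eq : Commute y (s : A)) φ
        · obtain ⟨k, hk⟩ := hy; exact ⟨k, by rw [orderOf_injective φ hφ, hk]⟩
        · rwa [orderOf_injective φ hφ, Subgroup.orderOf_coe]
    by_cases hs : p ∣ orderOf s
    · exact (if_neg fun h => hiff.1 h hs).trans (if_pos hs).symm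
    · exact (if_pos (hiff.2 hs)).trans (if_neg hs).symm
  rw [hR, sectionSum, sum_isPPart_eq hφ hy]
  -- the blocks of `(Subgroup.centralizer ({y} : Set A))` under `TC`
  set S := (blockSets M (Subgroup.centralizer ({y} : Set A))).filter fun β => ∃ ξ ∈ β, ξ ∈ TC with hS
  have hzero : ∀ β ∈ blockSets M (Subgroup.centralizer ({y} : Set A)), ∀ ψ : IrrCharacter A, ∀ s : (Subgroup.centralizer ({y} : Set A)), ¬ p ∣ orderOf s →
      (β ∈ S ↔ ψ ∉ T) → secPart y β ψ s = 0 := by
    intro β hβ ψ s hs hiff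
    obtain ⟨B, hB⟩ := inducedBlockDefined_centralizer y hy hM (mem_blockSets.1 hβ)
    refine secPart_eq_zero_of_isInducedBlock y hy hM hB (fun hψB => ?_) hs
    by_cases hβS : β ∈ S
    · obtain ⟨ξ, hξ, hξT⟩ := (mem_filter.1 hβS).2
      exact hiff.1 hβS ((mem_indSet_comp_iff φ hB hξ hψB).1 hξT)
    · obtain ⟨ξ, hξ⟩ := isPBlock_nonempty hB.1
      refine hβS (mem_filter.2 ⟨hβ, ξ, hξ, (mem_indSet_comp_iff φ hB hξ hψB).2 ?_⟩)
      by_contra hψT
      exact hβS (hiff.2 hψT)
  have hval : ∀ ψ ∈ blockFinset T, ∀ s : (Subgroup.centralizer ({y} : Set A)), ¬ p ∣ orderOf s →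
      (ψ : A → ℂ) ((cenElem y * s : (Subgroup.centralizer ({y} : Set A))) : A) = ∑ β ∈ S, secPart y β ψ s := by
    intro ψ hψ s hs
    rw [apply_eq_sum_secPart (M := M) y ψ s]
    refine (sum_subset (filter_subset _ _) fun β hβ hβS => hzero β hβ ψ s hs ?_).symm
    exact iff_of_false hβS (not_not.2 (mem_blockFinset.1 hψ))
  have hsplit : ∀ s : (Subgroup.centralizer ({y} : Set A)), ∑ ξ ∈ blockFinset TC,
      (ξ : (Subgroup.centralizer ({y} : Set A)) → ℂ) (cenElem y * s) * conj ((ξ : (Subgroup.centralizer ({y} : Set A)) → ℂ) (cenElem y * s)) =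
      ∑ β ∈ S, ∑ ξ ∈ blockFinset β,
        (ξ : (Subgroup.centralizer ({y} : Set A)) → ℂ) (cenElem y * s) * conj ((ξ : (Subgroup.centralizer ({y} : Set A)) → ℂ) (cenElem y * s)) := by
    intro s
    rw [← sum_fiberwise_of_maps_to (g := fun ξ : IrrCharacter (Subgroup.centralizer ({y} : Set A)) => blockOf M (ξ : (Subgroup.centralizer ({y} : Set A)) → ℂ)) (t := S)
      (fun ξ hξ => mem_filter.2 ⟨mem_blockSets.2 (isPBlock_blockOf ξ), ξ, mem_blockOf_self ξ,
        mem_blockFinset.1 hξ⟩)]
    refine sum_congr rfl fun β hβ => sum_congr ?_ fun _ _ => rfl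
    obtain ⟨hβb, ξ₀, hξ₀, hξ₀T⟩ := mem_filter.1 hβ
    have hβb' := mem_blockSets.1 hβb
    ext ξ
    simp only [mem_filter, mem_blockFinset]
    exact ⟨fun h => h.2 ▸ mem_blockOf_self ξ, fun h =>
      ⟨mem_indSet_of_mem hβb' hξ₀ h hξ₀T, (eq_blockOf_of_mem hβb' h).symm⟩⟩
  calc ∑ s : (Subgroup.centralizer ({y} : Set A)), (if p ∣ orderOf s then 0 else ∑ ψ ∈ blockFinset T,
        (ψ : A → ℂ) ((cenElem y * s : (Subgroup.centralizer ({y} : Set A))) : A) * conj ((ψ : A → ℂ) ((cenElem y * s : (Subgroup.centralizer ({y} : Set A))) : A)))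
      = ∑ s : (Subgroup.centralizer ({y} : Set A)), ∑ ψ : IrrCharacter A, ∑ β ∈ S, ∑ β' ∈ S,
          (if p ∣ orderOf s then 0 else secPart y β ψ s * conj (secPart y β' ψ s)) := by
        refine sum_congr rfl fun s _ => ?_
        by_cases hs : p ∣ orderOf s
        · simp [hs]
        · simp only [if_neg hs, ← mul_sum, ← sum_mul, ← map_sum]
          rw [sum_congr rfl fun ψ hψ => by rw [hval ψ hψ s hs]]
          refine sum_subset (subset_univ _) fun ψ _ hψ => ?_
          rw [sum_eq_zero fun β hβ => hzero β (mem_filter.1 hβ).1 ψ s hs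
            (iff_of_true hβ (by simpa using hψ)), zero_mul]
    _ = ∑ β ∈ S, ∑ ψ : IrrCharacter A, ∑ s : (Subgroup.centralizer ({y} : Set A)),
          (if p ∣ orderOf s then 0 else secPart y β ψ s * conj (secPart y β ψ s)) := by
        rw [sum_comm]
        conv_lhs => arg 2; ext ψ; rw [sum_comm]; arg 2; ext β; rw [sum_comm]
        rw [sum_comm]
        refine sum_congr rfl fun β hβ => sum_congr rfl fun ψ _ => ?_
        refine sum_eq_single_of_mem β hβ fun β' hβ' hne => ?_
        exact sum_secPart_mul_conj_eq_zero y hM (mem_blockSets.1 (mem_filter.1 hβ).1)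
          (mem_blockSets.1 (mem_filter.1 hβ').1) (Ne.symm hne) ψ ψ
    _ = ∑ s : (Subgroup.centralizer ({y} : Set A)), (if p ∣ orderOf s then 0 else ∑ ξ ∈ blockFinset TC,
          (ξ : (Subgroup.centralizer ({y} : Set A)) → ℂ) (cenElem y * s) * conj ((ξ : (Subgroup.centralizer ({y} : Set A)) → ℂ) (cenElem y * s))) := by
        conv_lhs => arg 2; ext β; rw [sum_comm]
        rw [sum_comm]
        refine sum_congr rfl fun s _ => ?_
        by_cases hs : p ∣ orderOf s
        · simp [hs]
        · simp only [if_neg hs, hsplit s]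
          exact sum_congr rfl fun β hβ =>
            sum_secPart_mul_conj y β hy hM (mem_blockSets.1 (mem_filter.1 hβ).1) hs hs

open CfsgLib.BrauerPairs in
/-- Transport along an isomorphism. -/
theorem sectionSum_comp_equiv {A' : Type*} [Group A'] [Fintype A'] (φ : A →* G) (σ : A' ≃* A)
    (u : G) :
    sectionSum M p (φ.comp σ.toMonoidHom) b u = sectionSum M p φ b u := by
  classical
  have hval : ∀ (ψ : IrrCharacter A) (g : G), indVal (φ.comp σ.toMonoidHom)
      (compIrr σ ψ : A' → ℂ) g = indVal φ (ψ : A → ℂ) g := by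
    intro ψ g
    rw [indVal, indVal, finsum_mem_eq_sum_filter, finsum_mem_eq_sum_filter]
    refine sum_equiv σ.toEquiv (fun a => by simp) fun a _ => ?_
    simp [compIrr_apply]
  have hmem : ∀ ψ : IrrCharacter A,
      compIrr σ ψ ∈ indSet M (φ.comp σ.toMonoidHom) b ↔ ψ ∈ indSet M φ b := fun ψ => by
    simp only [indSet, Set.mem_ofPred_eq, hval]
  have hinv : ∀ ψ : IrrCharacter A', compIrr σ (compIrr σ.symm ψ) = ψ := fun ψ =>
    Subtype.ext (funext fun a => by simp [compIrr_apply])
  rw [sectionSum, sectionSum]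
  refine Fintype.sum_equiv σ.toEquiv _ _ fun a => ?_
  simp only [MonoidHom.comp_apply, MulEquiv.coe_toMonoidHom, MulEquiv.toEquiv_eq_coe,
    EquivLike.coe_coe]
  refine ite_congr rfl (fun _ => ?_) fun _ => rfl
  refine sum_nbij' (fun ψ => compIrr σ.symm ψ) (fun ψ => compIrr σ ψ) (fun ψ hψ => ?_)
    (fun ψ hψ => mem_blockFinset.2 ((hmem ψ).2 (mem_blockFinset.1 hψ))) (fun ψ _ => hinv ψ)
    (fun ψ _ => Subtype.ext (funext fun a => by simp [compIrr_apply])) (fun ψ _ => ?_)
  · refine mem_blockFinset.2 ((hmem _).1 ?_)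
    rw [hinv]
    exact mem_blockFinset.1 hψ
  · simp [compIrr_apply]

/-- Elements outside the image have empty section. -/
theorem sectionSum_eq_zero {φ : A →* G} {u : G}
    (hu : ¬ ∃ a : A, φ a = u ∧ ∃ k : ℕ, orderOf u = p ^ k) :
    sectionSum M p φ b u = 0 := by
  classical
  refine sum_eq_zero fun a _ => if_neg fun h => ?_
  obtain ⟨j, hj⟩ := Subgroup.mem_zpowers_iff.1 (mem_zpowers_of_isPPart h)
  obtain ⟨w, -, -, hk, -⟩ := h
  exact hu ⟨a ^ j, by rw [map_zpow, hj], hk⟩

end CfsgLib.BlockSections
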